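import Cfsg.Agent.H862.T5.SpRow
import Cfsg.Agent.H774.Wf.QsRange
import Cfsg.Agent.SignalizersComponents.SLQuasisimple

/-!
# S3826: the `SL₂` on a hyperbolic pair, inside `PSp`
-/

set_option autoImplicit false
set_option linter.unusedSectionVars false

namespace Cfsg.Agent.H774.Wf.Psp

open Cfsg Cfsg.Agent.ClassicalGeometry.SympBasic Cfsg.Agent.ClassicalGeometry.SympAutSemi
open Cfsg.Agent.ClassicalGeometry.SympGamma Cfsg.Agent.H862.T5.SpCore Cfsg.Agent.H862.T5.SpRow
open Matrix

variable {F : Type} [Field F] {m : ℕ}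

/-! ### the perp of a hyperbolic pair -/

section pair

variable {e f : VV m F}

/-- decomposition along a hyperbolic pair -/
theorem decomp (h : sympForm m F e f = 1) (x : VV m F) :
    sympForm m F e (x - sympForm m F x f • e - sympForm m F e x • f) = 0 ∧
      sympForm m F f (x - sympForm m F x f • e - sympForm m F e x • f) = 0 := by
  have h1 : sympForm m F f e = -1 := by rw [sympForm_swap, h]
  have h2 : sympForm m F f x = - sympForm m F x f := sympForm_swap _ _
  constructor
  · rw [sympForm_sub_right, sympForm_sub_right, sympForm_smul_right, sympForm_smul_right, sympForm_self, h]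
    ring
  · rw [sympForm_sub_right, sympForm_sub_right, sympForm_smul_right, sympForm_smul_right, sympForm_self, h1, h2]
    ring

/-- the action of a `2 × 2` matrix -/
def tfun (e f : VV m F) (g : Matrix (Fin 2) (Fin 2) F) (x : VV m F) : VV m F :=
  x + ((g 0 0 - 1) * sympForm m F x f + g 0 1 * sympForm m F e x) • e +
    (g 1 0 * sympForm m F x f + (g 1 1 - 1) * sympForm m F e x) • f

theorem tfun_add (g : Matrix (Fin 2) (Fin 2) F) (x y : VV m F) :
    tfun e f g (x + y) = tfun e f g x + tfun e f g y := by
  unfold tfun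
  rw [sympForm_add_left, sympForm_add_right]
  module

theorem tfun_smul (g : Matrix (Fin 2) (Fin 2) F) (a : F) (x : VV m F) :
    tfun e f g (a • x) = a • tfun e f g x := by
  unfold tfun
  rw [sympForm_smul_left, sympForm_smul_right]
  module

theorem form_tfun_left (h : sympForm m F e f = 1) (g : Matrix (Fin 2) (Fin 2) F) (x : VV m F) :
    sympForm m F (tfun e f g x) f = g 0 0 * sympForm m F x f + g 0 1 * sympForm m F e x := by
  unfold tfun
  rw [sympForm_add_left, sympForm_add_left, sympForm_smul_left, sympForm_smul_left, sympForm_self, h]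
  ring

theorem form_tfun_right (h : sympForm m F e f = 1) (g : Matrix (Fin 2) (Fin 2) F) (x : VV m F) :
    sympForm m F e (tfun e f g x) = g 1 0 * sympForm m F x f + g 1 1 * sympForm m F e x := by
  unfold tfun
  rw [sympForm_add_right, sympForm_add_right, sympForm_smul_right, sympForm_smul_right, sympForm_self, h]
  ring

theorem tfun_mul (h : sympForm m F e f = 1) (g k : Matrix (Fin 2) (Fin 2) F) (x : VV m F) :
    tfun e f (g * k) x = tfun e f g (tfun e f k x) := by
  rw [tfun, tfun.eq_1 (x := tfun e f k x), form_tfun_left h, form_tfun_right h, tfun]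
  simp only [Matrix.mul_apply, Fin.sum_univ_two]
  module

theorem tfun_one (x : VV m F) : tfun e f 1 x = x := by
  simp [tfun]

theorem form_tfun (h : sympForm m F e f = 1) {g : Matrix (Fin 2) (Fin 2) F} (hg : g.det = 1) (x y : VV m F) :
    sympForm m F (tfun e f g x) (tfun e f g y) = sympForm m F x y := by
  rw [Matrix.det_fin_two] at hg
  have h1 : ∀ z, sympForm m F f z = - sympForm m F z f := fun z => sympForm_swap _ _
  have h2 : ∀ z, sympForm m F z e = - sympForm m F e z := fun z => sympForm_swap _ _
  unfold tfun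
  simp only [sympForm_add_left, sympForm_add_right, sympForm_smul_left, sympForm_smul_right, sympForm_self, h]
  rw [h1 e, h1 y, h2 x, h]
  linear_combination (sympForm m F x f * sympForm m F e y - sympForm m F e x * sympForm m F y f) * hg

/-- the permutation of the vectors -/
def tperm (h : sympForm m F e f = 1) : Matrix.SpecialLinearGroup (Fin 2) F →* Equiv.Perm (VV m F) where
  toFun g :=
    { toFun := tfun e f (g : Matrix (Fin 2) (Fin 2) F)
      invFun := tfun e f ((g⁻¹ : Matrix.SpecialLinearGroup (Fin 2) F) : Matrix (Fin 2) (Fin 2) F)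
      left_inv := fun x => by
        rw [← tfun_mul h, ← Matrix.SpecialLinearGroup.coe_mul, inv_mul_cancel, Matrix.SpecialLinearGroup.coe_one,
          tfun_one]
      right_inv := fun x => by
        rw [← tfun_mul h, ← Matrix.SpecialLinearGroup.coe_mul, mul_inv_cancel, Matrix.SpecialLinearGroup.coe_one,
          tfun_one] }
  map_one' := by
    ext1 x
    exact tfun_one x
  map_mul' g k := by
    ext1 x
    show tfun e f ((g * k : Matrix.SpecialLinearGroup (Fin 2) F) : Matrix (Fin 2) (Fin 2) F) x = _
    rw [Matrix.SpecialLinearGroup.coe_mul, tfun_mul h]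
    rfl

theorem exists_sl2 (h : sympForm m F e f = 1) (g : Matrix.SpecialLinearGroup (Fin 2) F) :
    tperm h g ∈ (rho m F).range := by
  obtain ⟨A, hA⟩ := exists_rho_eq (tperm h g) (tfun_add _) (fun a v => tfun_smul _ a v)
    (fun u v => form_tfun h g.2 u v)
  exact ⟨A, hA⟩

/-- `SL₂` acting on the hyperbolic pair -/
noncomputable def sl2 (h : sympForm m F e f = 1) :
    Matrix.SpecialLinearGroup (Fin 2) F →* Matrix.symplecticGroup (Fin m) F :=
  (MonoidHom.ofInjective (rho_injective (m := m) (F := F))).symm.toMonoidHom.comp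
    ((tperm h).codRestrict (rho m F).range (exists_sl2 h))

theorem rho_sl2 (h : sympForm m F e f = 1) (g : Matrix.SpecialLinearGroup (Fin 2) F) (x : VV m F) :
    rho m F (sl2 h g) x = tfun e f (g : Matrix (Fin 2) (Fin 2) F) x := by
  have h1 : rho m F (sl2 h g) = tperm h g := by
    have := MonoidHom.apply_ofInjective_symm (rho_injective (m := m) (F := F)) ⟨tperm h g, exists_sl2 h g⟩
    exact this
  rw [h1]
  rfl

/-- the perp of the pair -/
def Perp (e f x : VV m F) : Prop := sympForm m F e x = 0 ∧ sympForm m F f x = 0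

theorem eq_of_perp (h : sympForm m F e f = 1) {x y : VV m F} (h1 : sympForm m F e x = sympForm m F e y)
    (h2 : sympForm m F f x = sympForm m F f y)
    (h3 : ∀ z, Perp e f z → sympForm m F x z = sympForm m F y z) : x = y := by
  apply eq_of_forall_sympForm_right
  intro z
  have h4 := h3 _ (decomp h z)
  have h5 : z = (z - sympForm m F z f • e - sympForm m F e z • f) + (sympForm m F z f • e + sympForm m F e z • f) := by
    module
  have h6 : sympForm m F x e = sympForm m F y e := by rw [sympForm_swap, h1, ← sympForm_swap]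
  have h7 : sympForm m F x f = sympForm m F y f := by rw [sympForm_swap, h2, ← sympForm_swap]
  rw [h5, sympForm_add_right, sympForm_add_right, h4, sympForm_add_right, sympForm_add_right, sympForm_smul_right,
    sympForm_smul_right, sympForm_smul_right, sympForm_smul_right, h6, h7]

/-- `SL₂` of the pair is the pointwise stabiliser of the perp -/
theorem mem_range_sl2 (h : sympForm m F e f = 1) {A : Matrix.symplecticGroup (Fin m) F} :
    A ∈ (sl2 h).range ↔ ∀ x, Perp e f x → rho m F A x = x := by
  constructor
  · rintro ⟨g, rfl⟩ x ⟨h1, h2⟩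
    have h3 : sympForm m F x f = 0 := by rw [sympForm_swap, h2, neg_zero]
    rw [rho_sl2, tfun, h1, h3]
    simp
  · intro hA
    have hf : ∀ u v, sympForm m F (rho m F A u) (rho m F A v) = sympForm m F u v := sympForm_rho A
    have hfe : sympForm m F f e = -1 := by rw [sympForm_swap, h]
    have key : ∀ u, (u = e ∨ u = f) → rho m F A u =
        sympForm m F (rho m F A u) f • e + sympForm m F e (rho m F A u) • f := by
      intro u hu
      apply eq_of_perp h
      · rw [sympForm_add_right, sympForm_smul_right, sympForm_smul_right, sympForm_self, h]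
        ring
      · rw [sympForm_add_right, sympForm_smul_right, sympForm_smul_right, sympForm_self, hfe,
          sympForm_swap f]
        ring
      · intro z hz
        have h1 := hf u z
        rw [hA z hz] at h1
        rw [h1, sympForm_add_left, sympForm_smul_left, sympForm_smul_left, hz.1, hz.2, mul_zero, mul_zero, add_zero]
        rcases hu with rfl | rfl
        · exact hz.1
        · exact hz.2
    have he := key e (Or.inl rfl)
    have hf' := key f (Or.inr rfl)
    set a := sympForm m F (rho m F A e) f with ha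
    set c := sympForm m F e (rho m F A e) with hc
    set b := sympForm m F (rho m F A f) f with hb
    set d := sympForm m F e (rho m F A f) with hd
    have hdet : a * d - b * c = 1 := by
      have h1 := hf e f
      rw [he, hf'] at h1
      simp only [sympForm_add_left, sympForm_add_right, sympForm_smul_left, sympForm_smul_right, sympForm_self, h,
        hfe] at h1
      linear_combination h1
    obtain ⟨g, hg⟩ : ∃ g : Matrix.SpecialLinearGroup (Fin 2) F, (g : Matrix (Fin 2) (Fin 2) F) = !![a, b; c, d] :=
      ⟨⟨!![a, b; c, d], by rw [Matrix.det_fin_two_of]; exact hdet⟩, rfl⟩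
    refine ⟨g, ?_⟩
    apply rho_injective
    ext1 x
    rw [rho_sl2, hg]
    have h5 : x = (x - sympForm m F x f • e - sympForm m F e x • f) + (sympForm m F x f • e + sympForm m F e x • f) := by
      module
    have h6 : rho m F A x = (x - sympForm m F x f • e - sympForm m F e x • f) +
        (sympForm m F x f • rho m F A e + sympForm m F e x • rho m F A f) := by
      conv_lhs => rw [h5]
      rw [(isSemi_rho A).1, hA _ (decomp h x), (isSemi_rho A).1, (isSemi_rho A).2.1, (isSemi_rho A).2.1]
      rfl
    rw [h6, he, hf', tfun]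
    simp only [Matrix.of_apply, Matrix.cons_val', Matrix.cons_val_zero, Matrix.cons_val_one, Matrix.cons_val_fin_one]
    module

/-- `SL₂` of the pair, in `PSp` -/
noncomputable def LL (h : sympForm m F e f = 1) : Subgroup (PSp m F) :=
  ((QuotientGroup.mk' (Subgroup.center (Matrix.symplecticGroup (Fin m) F))).comp (sl2 h)).range

theorem mem_LL (h : sympForm m F e f = 1) {x : PSp m F} :
    x ∈ LL h ↔ ∃ A : Matrix.symplecticGroup (Fin m) F, (∀ x, Perp e f x → rho m F A x = x) ∧
      x = (QuotientGroup.mk A : PSp m F) := by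
  constructor
  · rintro ⟨g, rfl⟩
    exact ⟨sl2 h g, (mem_range_sl2 h).1 ⟨g, rfl⟩, rfl⟩
  · rintro ⟨A, hA, rfl⟩
    obtain ⟨g, hg⟩ := (mem_range_sl2 h).2 hA
    exact ⟨g, by rw [← hg]; rfl⟩

/-- the semisimilitudes preserving the pair preserve `LL` -/
theorem Psi_mem_LL (h : sympForm m F e f = 1) {g : semiSim m F} (hg : ∀ x, Perp e f (g.1 x) ↔ Perp e f x)
    (x : PSp m F) : Psi m F g x ∈ LL h ↔ x ∈ LL h := by
  have key : ∀ (g : semiSim m F), (∀ x, Perp e f (g.1 x) ↔ Perp e f x) → ∀ x ∈ LL h, Psi m F g x ∈ LL h := by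
    intro g hg x hx
    rw [mem_LL] at hx ⊢
    obtain ⟨A, hA, rfl⟩ := hx
    refine ⟨conjHom m F g A, fun x hx => ?_, Psi_mk g A⟩
    rw [rho_conjHom]
    show g.1 (rho m F A (g.1⁻¹ x)) = x
    rw [hA]
    · exact g.1.apply_symm_apply x
    · rw [← hg, perm_apply_inv_self]
      exact hx
  refine ⟨fun hx => ?_, key g hg x⟩
  have h1 := key g⁻¹ (fun x => by
    rw [← hg]
    show Perp e f (g.1 (g.1⁻¹ x)) ↔ _
    rw [perm_apply_inv_self]) _ hx
  rw [map_inv, MulAut.inv_apply_self] at h1
  exact h1

variable [Fintype F]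

/-- equality in `PSp` -/
theorem eq_of_mk (hm : 1 ≤ m) {A B : Matrix.symplecticGroup (Fin m) F}
    (h : (QuotientGroup.mk A : PSp m F) = QuotientGroup.mk B) : ∃ a : F, ∀ v, rho m F B v = a • rho m F A v := by
  have h1 : Psi m F (lin (A⁻¹ * B)) = 1 := by
    rw [Psi_lin, QuotientGroup.mk_mul, QuotientGroup.mk_inv, ← h, inv_mul_cancel, map_one]
  obtain ⟨a, ha⟩ := exists_scal hm h1
  refine ⟨a, fun v => ?_⟩
  have h2 : rho m F (A⁻¹ * B) v = a • v := ha v
  rw [map_mul, map_inv] at h2
  have h3 : rho m F A ((rho m F A)⁻¹ (rho m F B v)) = rho m F A (a • v) := congrArg _ h2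
  rw [perm_apply_inv_self, (isSemi_rho A).2.1] at h3
  exact h3

theorem eq_of_mk_of_fix (hm : 1 ≤ m) {A B : Matrix.symplecticGroup (Fin m) F} {v : VV m F} (hv : v ≠ 0)
    (hA : rho m F A v = v) (hB : rho m F B v = v)
    (h : (QuotientGroup.mk A : PSp m F) = QuotientGroup.mk B) : A = B := by
  obtain ⟨a, ha⟩ := eq_of_mk hm h
  have h1 := ha v
  rw [hA, hB] at h1
  have h2 : a = 1 := by
    have h3 : (a - 1) • v = 0 := by rw [sub_smul, ← h1, one_smul, sub_self]
    exact sub_eq_zero.1 ((smul_eq_zero.1 h3).resolve_right hv)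
  apply rho_injective
  ext1 x
  rw [ha x, h2, one_smul]

theorem fix_transv {u : VV m F} (c : F) {x : VV m F} (hx : sympForm m F x u = 0) :
    rho m F (transv u c) x = x := by
  rw [rho_transv, hx, mul_zero, zero_smul, add_zero]

/-- a semisimilitude preserving the pair and moving a line of its span does not centralise `LL` -/
theorem exists_Psi_ne (hm : 1 ≤ m) (h : sympForm m F e f = 1) {w : VV m F} (hw0 : w ≠ 0) (hw : Perp e f w)
    {g : semiSim m F} (hg : ∀ x, Perp e f (g.1 x) ↔ Perp e f x) {u : VV m F}
    (hu : ∀ x, Perp e f x → sympForm m F x u = 0) (hgu : ∀ a : F, g.1 u ≠ a • u) :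
    ∃ x ∈ LL h, Psi m F g x ≠ x := by
  refine ⟨QuotientGroup.mk (transv u 1), (mem_LL h).2 ⟨_, fun x hx => fix_transv _ (hu x hx), rfl⟩, fun hcon => ?_⟩
  rw [Psi_mk] at hcon
  have hfix : rho m F (conjHom m F g (transv u 1)) w = w := by
    rw [rho_conjHom]
    show g.1 (rho m F (transv u 1) (g.1⁻¹ w)) = w
    rw [fix_transv, perm_apply_inv_self]
    apply hu
    rw [← hg, perm_apply_inv_self]
    exact hw
  have h1 := eq_of_mk_of_fix hm hw0 hfix (fix_transv _ (hu w hw)) hcon
  obtain ⟨φ, l, hl, hs⟩ := g.2
  rw [conjHom_transv g hl hs, map_one, one_mul] at h1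
  have hg0 : g.1 0 = 0 := by
    have := hs.1 0 0
    rw [add_zero] at this
    exact left_eq_add.1 this
  have hu0 : u ≠ 0 := by
    rintro rfl
    apply hgu 0
    rw [zero_smul]
    exact hg0
  obtain ⟨x, hx⟩ : ∃ x, sympForm m F x u ≠ 0 := by
    by_contra hno
    push Not at hno
    exact hu0 (eq_zero_of_forall_sympForm_left hno)
  have h2 : rho m F (transv (g.1 u) l⁻¹) x = rho m F (transv u 1) x := by rw [h1]
  rw [rho_transv, rho_transv, one_mul] at h2
  have h3 := add_left_cancel h2
  by_cases h4 : l⁻¹ * sympForm m F x (g.1 u) = 0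
  · rw [h4, zero_smul] at h3
    exact (smul_ne_zero hx hu0) h3.symm
  · apply hgu ((l⁻¹ * sympForm m F x (g.1 u))⁻¹ * sympForm m F x u)
    rw [mul_smul, ← h3, smul_smul, inv_mul_cancel₀ h4, one_smul]

end pair

end Cfsg.Agent.H774.Wf.Psp
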