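import Cfsg.Agent.H774.Wf.PspBase

/-!
# S3826: `PSp_2m(q)`, `q ≥ 4` prime to `3`
-/

set_option autoImplicit false
set_option linter.unusedSectionVars false

namespace Cfsg.Agent.H774.Wf.Psp

open Cfsg Cfsg.Agent.ClassicalGeometry.SympBasic Cfsg.Agent.ClassicalGeometry.SympAutSemi
open Cfsg.Agent.ClassicalGeometry.SympGamma Cfsg.Agent.H862.T5.SpCore Cfsg.Agent.H862.T5.SpRow
open Matrix Cfsg.Agent.H533.Wf

variable {F : Type} [Field F] {m : ℕ}

/-! ### the standard basis -/

def ee (i : Fin m) : VV m F := Pi.single (Sum.inr i) 1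

def ff (i : Fin m) : VV m F := Pi.single (Sum.inl i) 1

theorem form_ee_left (i : Fin m) (v : VV m F) : sympForm m F (ee i) v = v (Sum.inl i) :=
  sympForm_single_inr_left i v

theorem form_ff_left (i : Fin m) (v : VV m F) : sympForm m F (ff i) v = - v (Sum.inr i) :=
  sympForm_single_inl_left i v

theorem ee_ff (i : Fin m) : sympForm m F (ee i) (ff i) = 1 := by
  rw [form_ee_left, ff, Pi.single_eq_same]

theorem ee_ff_ne {i j : Fin m} (h : i ≠ j) : sympForm m F (ee i) (ff j) = 0 := by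
  rw [form_ee_left, ff, Pi.single_eq_of_ne (by simpa using h)]

theorem ff_ee_ne {i j : Fin m} (h : i ≠ j) : sympForm m F (ff i) (ee j) = 0 := by
  rw [form_ff_left, ee, Pi.single_eq_of_ne (by simpa using h), neg_zero]

theorem ee_ee (i j : Fin m) : sympForm m F (ee i) (ee j) = 0 := by
  rw [form_ee_left, ee, Pi.single_eq_of_ne (by simp)]

theorem ff_ff (i j : Fin m) : sympForm m F (ff i) (ff j) = 0 := by
  rw [form_ff_left, ff, Pi.single_eq_of_ne (by simp), neg_zero]

theorem ee_ne (i : Fin m) : (ee i : VV m F) ≠ 0 := by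
  intro h
  have h1 := congrFun h (Sum.inr i)
  rw [ee, Pi.single_eq_same] at h1
  exact one_ne_zero h1

theorem rho_add (A : Matrix.symplecticGroup (Fin m) F) (u v : VV m F) :
    rho m F A (u + v) = rho m F A u + rho m F A v := (isSemi_rho A).1 u v

theorem rho_smul (A : Matrix.symplecticGroup (Fin m) F) (a : F) (v : VV m F) :
    rho m F A (a • v) = a • rho m F A v := (isSemi_rho A).2.1 a v

theorem rho_sub (A : Matrix.symplecticGroup (Fin m) F) (u v : VV m F) :
    rho m F A (u - v) = rho m F A u - rho m F A v := by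
  have h1 := rho_add A (u - v) v
  rw [sub_add_cancel] at h1
  rw [h1, add_sub_cancel_right]

theorem rho_neg (A : Matrix.symplecticGroup (Fin m) F) (v : VV m F) :
    rho m F A (- v) = - rho m F A v := by
  have h1 := rho_smul A (-1) v
  rwa [neg_one_smul, neg_one_smul] at h1

variable [Fintype F]

/-- the automorphisms of order `p` -/
theorem split_aut (hm : 2 ≤ m) (h22 : m = 2 → 3 ≤ Fintype.card F) {p : ℕ} (hp : p.Prime) (hp2 : p ≠ 2)
    {a : MulAut (PSp m F)} (ha : orderOf a = p) :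
    (∃ A : Matrix.symplecticGroup (Fin m) F, orderOf A = p ∧ a = MulAut.conj (QuotientGroup.mk A : PSp m F)) ∨
      ∃ (φ : F ≃+* F), orderOf φ = p ∧
        ∃ s ∈ (MulAut.conj : PSp m F →* MulAut (PSp m F)).range, a = s * Psi m F (frobS m φ) * s⁻¹ := by
  have : Fact p.Prime := ⟨hp⟩
  have hodd : Odd p := hp.odd_of_ne_two hp2
  have hsimple : IsSimpleGroup (PSp m F) := S0270.result m hm h22
  have hna : ¬ IsMulCommutative (PSp m F) := Cfsg.Agent.H458.RowPSp.not_comm hm h22
  have hap : a ^ p = 1 := by rw [← ha, pow_orderOf_eq_one]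
  rcases Cfsg.Agent.H458.SpAut.inner_or_field hm h22 hodd hap with ⟨s, rfl⟩ | ⟨g, φ, l, hl, hg, hφ, rfl⟩
  · have h1 : orderOf s = p := by
      rw [← ha]
      exact (orderOf_injective _ (Cfsg.Agent.H533.T5.conj_injective_of_simple hna) s).symm
    obtain ⟨A, hA, hA'⟩ := Cfsg.Agent.H458.SpOp.exists_lift (by omega) hp hp2 s h1
    exact Or.inl ⟨A, hA', by rw [← hA]; rfl⟩
  · obtain ⟨h1, h2⟩ := exists_inner_conj hm h22 hp hp2 hl hg hap hφ
    exact Or.inr ⟨φ, h1, h2⟩

/-! ### elements of order `3` -/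

/-- an isometry of order three -/
theorem pow_three {A : Matrix.symplecticGroup (Fin m) F} (hA : orderOf A = 3) (v : VV m F) :
    rho m F A (rho m F A (rho m F A v)) = v := by
  have h1 : rho m F (A ^ 3) v = v := by rw [← hA, pow_orderOf_eq_one, map_one]; rfl
  rw [map_pow] at h1
  exact h1

theorem exists_form_ne {A : Matrix.symplecticGroup (Fin m) F} (hA : orderOf A = 3) :
    ∃ u : VV m F, sympForm m F u (rho m F A u) ≠ 0 := by
  by_contra hno
  push Not at hno
  have hadd := (isSemi_rho A).1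
  have h1 : ∀ u w, sympForm m F u (rho m F A w) = sympForm m F (rho m F A u) w := by
    intro u w
    have h2 := hno (u + w)
    rw [hadd, sympForm_add_left, sympForm_add_right, sympForm_add_right, hno, hno, zero_add, add_zero] at h2
    rw [sympForm_swap (rho m F A u) w]
    linear_combination h2
  have h2 : ∀ u w, sympForm m F u (rho m F A w) = sympForm m F (rho m F A (rho m F A u)) w := by
    intro u w
    have h3 := sympForm_rho A (rho m F A (rho m F A u)) w
    rw [pow_three hA] at h3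
    exact h3
  have h3 : ∀ u, rho m F A u = rho m F A (rho m F A u) := by
    intro u
    apply eq_of_forall_sympForm_right
    intro w
    rw [← h1, h2]
  have h4 : A = 1 := by
    apply rho_injective
    ext1 u
    rw [map_one]
    exact ((rho m F A).injective (h3 u)).symm
  rw [h4, orderOf_one] at hA
  omega

/-- the vectors `v = A u - u` -/
theorem mem_V1 {A : Matrix.symplecticGroup (Fin m) F} (hA : orderOf A = 3) (u : VV m F) :
    rho m F A (rho m F A (rho m F A u - u)) = - (rho m F A u - u) - rho m F A (rho m F A u - u) := by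
  rw [rho_sub, rho_sub, pow_three hA]
  abel

theorem form_V1 {A : Matrix.symplecticGroup (Fin m) F} (hA : orderOf A = 3) (u : VV m F) :
    sympForm m F (rho m F A u - u) (rho m F A (rho m F A u - u)) = 3 * sympForm m F u (rho m F A u) := by
  have h1 := sympForm_rho A u (rho m F A u)
  have h2 := sympForm_rho A (rho m F A (rho m F A u)) u
  rw [pow_three hA] at h2
  rw [rho_sub, sympForm_sub_left, sympForm_sub_right, sympForm_sub_right, sympForm_self, h1,
    sympForm_swap u (rho m F A (rho m F A u)), ← h2]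
  ring

/-- the standard `LL` -/
noncomputable def L0 (i : Fin m) : Subgroup (PSp m F) := LL (ee_ff (F := F) i)

theorem finite_psp : Finite (PSp m F) := by
  have : Finite (Matrix.symplecticGroup (Fin m) F) := inferInstance
  exact Quotient.finite _

/-- **the good elements** -/
theorem exists_good (hm : 2 ≤ m) (h22 : m = 2 → 3 ≤ Fintype.card F) (h3 : (3 : F) ≠ 0)
    {Γ : Subgroup (MulAut (PSp m F))} {C D : Set (MulAut (PSp m F))} (h : ACfg 3 Γ C D) :
    ∃ c ∈ C, (∀ x, c x ∈ L0 (⟨0, by omega⟩ : Fin m) ↔ x ∈ L0 (⟨0, by omega⟩ : Fin m)) ∧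
      ∃ x ∈ L0 (⟨0, by omega⟩ : Fin m), c x ≠ x := by
  set i0 : Fin m := ⟨0, by omega⟩ with hi0
  set i1 : Fin m := ⟨1, by omega⟩ with hi1
  have h01 : i0 ≠ i1 := by
    intro h
    have := congrArg Fin.val h
    simp [hi0, hi1] at this
  have hw : Perp (ee i0) (ff i0) (ee i1 : VV m F) := ⟨ee_ee _ _, ff_ee_ne h01⟩
  obtain ⟨c, hc⟩ := h.neC
  rcases split_aut hm h22 Nat.prime_three (by norm_num) (h.ordC c hc) with ⟨A, hA, rfl⟩ | ⟨φ, hφ, s, hs, rfl⟩
  · obtain ⟨u, hu⟩ := exists_form_ne hA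
    set v := rho m F A u - u with hv
    set γ := sympForm m F v (rho m F A v) with hγ
    have hγ0 : γ ≠ 0 := by rw [hγ, form_V1 hA]; exact mul_ne_zero h3 hu
    have hvv : sympForm m F v (γ⁻¹ • rho m F A v) = 1 := by
      rw [sympForm_smul_right, ← hγ, inv_mul_cancel₀ hγ0]
    obtain ⟨T, -, hT1, hT2⟩ := exists_transvGroup_hyperbolic hvv (ee_ff (F := F) i0)
    have hT1' : rho m F T v = ee i0 := hT1
    have hT2' : rho m F T (γ⁻¹ • rho m F A v) = ff i0 := hT2
    have hTi : ∀ x y, rho m F T x = y → (rho m F T)⁻¹ y = x := by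
      rintro x _ rfl
      exact perm_inv_apply_self _ _
    have hg1 : rho m F (T * A * T⁻¹) (ee i0) = γ • ff i0 := by
      rw [map_mul, map_mul, map_inv]
      show rho m F T (rho m F A ((rho m F T)⁻¹ (ee i0))) = _
      rw [hTi _ _ hT1', ← hT2', ← rho_smul, smul_smul, mul_inv_cancel₀ hγ0, one_smul]
    have hg2 : rho m F (T * A * T⁻¹) (ff i0) = - (γ⁻¹ • ee i0) - ff i0 := by
      rw [map_mul, map_mul, map_inv]
      show rho m F T (rho m F A ((rho m F T)⁻¹ (ff i0))) = _
      rw [hTi _ _ hT2', rho_smul, hv, mem_V1 hA, ← hv]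
      have e1 : γ⁻¹ • (-v - rho m F A v) = (-γ⁻¹) • v + (-1 : F) • (γ⁻¹ • rho m F A v) := by module
      rw [e1, rho_add, rho_smul, rho_smul, hT1', hT2']
      module
    have hmem : MulAut.conj (QuotientGroup.mk T : PSp m F) * MulAut.conj (QuotientGroup.mk A : PSp m F) *
        (MulAut.conj (QuotientGroup.mk T : PSp m F))⁻¹ ∈ C := h.conjC _ (h.inn ⟨_, rfl⟩) _ hc
    have he : MulAut.conj (QuotientGroup.mk T : PSp m F) * MulAut.conj (QuotientGroup.mk A : PSp m F) *
        (MulAut.conj (QuotientGroup.mk T : PSp m F))⁻¹ = Psi m F (lin (T * A * T⁻¹)) := by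
      rw [Psi_lin, QuotientGroup.mk_mul, QuotientGroup.mk_mul, QuotientGroup.mk_inv, map_mul, map_mul, map_inv]
    rw [he] at hmem
    have hg : ∀ x, Perp (ee i0) (ff i0) ((lin (T * A * T⁻¹)).1 x) ↔ Perp (ee i0) (ff i0) x := by
      intro x
      show Perp (ee i0) (ff i0) (rho m F (T * A * T⁻¹) x) ↔ _
      have e1 := sympForm_rho (T * A * T⁻¹) (ee i0) x
      have e2 := sympForm_rho (T * A * T⁻¹) (ff i0) x
      rw [hg1, sympForm_smul_left] at e1
      have e3 : -(γ⁻¹ • ee i0) - (ff i0 : VV m F) = (-γ⁻¹) • ee i0 + (-1 : F) • ff i0 := by module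
      rw [hg2, e3, sympForm_add_left, sympForm_smul_left, sympForm_smul_left] at e2
      unfold Perp
      constructor
      · rintro ⟨a1, a2⟩
        rw [a2, mul_zero] at e1
        rw [a1, a2, mul_zero, mul_zero, add_zero] at e2
        exact ⟨e1.symm, e2.symm⟩
      · rintro ⟨a1, a2⟩
        rw [a1] at e1
        rw [a2] at e2
        have a3 := (mul_eq_zero.1 e1).resolve_left hγ0
        rw [a3, mul_zero, add_zero] at e2
        exact ⟨(mul_eq_zero.1 e2).resolve_left (neg_ne_zero.2 (inv_ne_zero hγ0)), a3⟩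
    refine ⟨_, hmem, Psi_mem_LL _ hg, exists_Psi_ne (by omega) _ (ee_ne i1) hw hg (u := ee i0) ?_ ?_⟩
    · intro x hx
      rw [sympForm_swap, hx.1, neg_zero]
    · intro a ha
      have ha' : rho m F (T * A * T⁻¹) (ee i0) = a • ee i0 := ha
      rw [hg1] at ha'
      have h5 := congrArg (fun z => sympForm m F (ee i0) z) ha'
      simp only [sympForm_smul_right, ee_ff, ee_ee, mul_one, mul_zero] at h5
      exact hγ0 h5
  · have hmem : s⁻¹ * (s * Psi m F (frobS m φ) * s⁻¹) * s⁻¹⁻¹ ∈ C :=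
      h.conjC _ (Γ.inv_mem (h.inn hs)) _ hc
    have he : s⁻¹ * (s * Psi m F (frobS m φ) * s⁻¹) * s⁻¹⁻¹ = Psi m F (frobS m φ) := by group
    rw [he] at hmem
    have hg : ∀ x, Perp (ee i0) (ff i0) ((frobS m φ).1 x) ↔ Perp (ee i0) (ff i0) x := by
      intro x
      show (sympForm m F (ee i0) (frobPerm m φ x) = 0 ∧ sympForm m F (ff i0) (frobPerm m φ x) = 0) ↔
        (sympForm m F (ee i0) x = 0 ∧ sympForm m F (ff i0) x = 0)
      rw [form_ee_left, form_ee_left, form_ff_left, form_ff_left, frobPerm_apply, frobPerm_apply]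
      simp
    obtain ⟨b, hb⟩ : ∃ b, φ b ≠ b := by
      by_contra hno
      push Not at hno
      have h1 : φ = 1 := RingEquiv.ext hno
      rw [h1, orderOf_one] at hφ
      omega
    refine ⟨_, hmem, Psi_mem_LL _ hg, exists_Psi_ne (by omega) _ (ee_ne i1) hw hg (u := ee i0 + b • ff i0) ?_ ?_⟩
    · intro x hx
      rw [sympForm_add_right, sympForm_smul_right, sympForm_swap, hx.1, sympForm_swap x, hx.2]
      simp
    · intro a ha
      have h1 := congrFun ha (Sum.inl i0)
      have h2 := congrFun ha (Sum.inr i0)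
      simp [frobPerm_apply, ee, ff] at h1 h2
      rw [← h2, one_mul] at h1
      exact hb h1

theorem L0_ne_bot (hm : 2 ≤ m) (i : Fin m) : L0 (F := F) i ≠ ⊥ := by
  intro h
  obtain ⟨j, hj⟩ : ∃ j : Fin m, i ≠ j := by
    by_cases hi : i = ⟨0, by omega⟩
    · refine ⟨⟨1, by omega⟩, fun h' => ?_⟩
      rw [hi] at h'
      have := congrArg Fin.val h'
      simp at this
    · exact ⟨_, hi⟩
  have h1 : (QuotientGroup.mk (transv (ee i) 1) : PSp m F) ∈ L0 (F := F) i :=
    (mem_LL (ee_ff i)).2 ⟨_, fun x hx => fix_transv _ (by rw [sympForm_swap, hx.1, neg_zero]), rfl⟩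
  rw [h, Subgroup.mem_bot, ← QuotientGroup.mk_one] at h1
  have h2 := eq_of_mk_of_fix (by omega) (ee_ne j) (fix_transv _ (ee_ee _ _)) (by rw [map_one]; rfl) h1
  have h3 : rho m F (transv (ee i) 1) (ff i) = ff i := by rw [h2, map_one]; rfl
  rw [rho_transv, sympForm_swap, ee_ff] at h3
  have h4 := left_eq_add.1 h3.symm
  exact smul_ne_zero (by simp) (ee_ne i) h4

theorem L0_ne_top (i : Fin m) (hm : 2 ≤ m) : L0 (F := F) i ≠ ⊤ := by
  intro h
  obtain ⟨j, hj⟩ : ∃ j : Fin m, i ≠ j := by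
    by_cases hi : i = ⟨0, by omega⟩
    · refine ⟨⟨1, by omega⟩, fun h' => ?_⟩
      rw [hi] at h'
      have := congrArg Fin.val h'
      simp at this
    · exact ⟨_, hi⟩
  have h1 : (QuotientGroup.mk (transv (ee j) 1) : PSp m F) ∈ L0 (F := F) i := by rw [h]; exact Subgroup.mem_top _
  obtain ⟨A, hA, hA'⟩ := (mem_LL (ee_ff i)).1 h1
  have hp : Perp (ee i) (ff i) (ee j : VV m F) := ⟨ee_ee _ _, ff_ee_ne hj⟩
  have hp' : Perp (ee i) (ff i) (ff j : VV m F) := ⟨ee_ff_ne hj, ff_ff _ _⟩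
  have h2 := eq_of_mk_of_fix (by omega) (ee_ne j) (fix_transv _ (ee_ee _ _)) (hA _ hp) hA'
  have h3 : rho m F (transv (ee j) 1) (ff j) = ff j := by rw [h2]; exact hA _ hp'
  rw [rho_transv, sympForm_swap, ee_ff] at h3
  have h4 := left_eq_add.1 h3.symm
  exact smul_ne_zero (by simp) (ee_ne j) h4

theorem qs_L0 (hm : 2 ≤ m) (h4 : 4 ≤ Fintype.card F) (i : Fin m) : QS (L0 (F := F) i) :=
  qs_range (SignalizersComponents.SLQuasisimple.isQuasisimple_two (by rw [Nat.card_eq_fintype_card]; exact h4)) _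
    (L0_ne_bot hm i)

/-- **`q ≥ 4`** -/
theorem arow_of_four (hm : 2 ≤ m) (h3 : (3 : F) ≠ 0) (h4 : 4 ≤ Fintype.card F) : ARow 3 (PSp m F) := by
  intro Γ C D h
  have := finite_psp (F := F) (m := m)
  have : Fact (Nat.Prime 3) := ⟨Nat.prime_three⟩
  obtain ⟨c, hc, hc1, hc2⟩ := exists_good hm (fun _ => by omega) h3 h
  obtain ⟨d, hd, hd1, hd2⟩ := exists_good hm (fun _ => by omega) h3 h.symm
  exact h.false_of_moves (qs_L0 hm h4 _) (L0_ne_top _ hm) hc hd hc1 hd1 hc2 hd2

end Cfsg.Agent.H774.Wf.Psp
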