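import Cfsg.Agent.H774.Wf.PspFour

/-!
# S3826: `Sp_2m(2)`, `m ≥ 3`
-/

set_option autoImplicit false
set_option linter.unusedSectionVars false

namespace Cfsg.Agent.H774.Wf.Psp

open Cfsg Cfsg.Agent.ClassicalGeometry.SympBasic Cfsg.Agent.ClassicalGeometry.SympAutSemi
open Cfsg.Agent.ClassicalGeometry.SympGamma Cfsg.Agent.H862.T5.SpCore Cfsg.Agent.H862.T5.SpRow
open Matrix Cfsg.Agent.H533.Wf

variable {F : Type} [Field F] {m : ℕ}

/-! ### transitivity on totally isotropic pairs -/

theorem mem_span_of_perp {u w : VV m F} (hu : u ≠ 0)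
    (h : ∀ z, sympForm m F u z = 0 → sympForm m F w z = 0) : ∃ c : F, w = c • u := by
  obtain ⟨z, hz, -⟩ := exists_both_ne_zero hu hu
  refine ⟨sympForm m F w z * (sympForm m F u z)⁻¹, eq_of_forall_sympForm_right fun y => ?_⟩
  have h1 := h (y - (sympForm m F u y * (sympForm m F u z)⁻¹) • z) (by
    rw [sympForm_sub_right, sympForm_smul_right, mul_assoc, inv_mul_cancel₀ hz, mul_one, sub_self])
  rw [sympForm_sub_right, sympForm_smul_right, sub_eq_zero] at h1
  rw [h1, sympForm_smul_left]
  ring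

theorem fix_perp {u v w : VV m F} (hu : u ≠ 0) (hv : sympForm m F u v = 0)
    (hw : sympForm m F u w = 0) (hv' : ∀ c : F, v ≠ c • u) (hw' : ∀ c : F, w ≠ c • u) :
    ∃ A : Matrix.symplecticGroup (Fin m) F, rho m F A u = u ∧ rho m F A v = w := by
  have hstep : ∀ v w, sympForm m F u v = 0 → sympForm m F u w = 0 → sympForm m F v w ≠ 0 →
      ∃ A : Matrix.symplecticGroup (Fin m) F, rho m F A u = u ∧ rho m F A v = w := by
    intro v w hv hw hvw
    exact ⟨transv (w - v) (sympForm m F v w)⁻¹, transv_sub_mulVec_of_eq (u := u) _ (hv.trans hw.symm),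
      transv_sub_mulVec hvw⟩
  have h1 : ∃ a, sympForm m F u a = 0 ∧ sympForm m F v a ≠ 0 := by
    by_contra hcon
    push Not at hcon
    obtain ⟨c, hc⟩ := mem_span_of_perp hu hcon
    exact hv' c hc
  have h2 : ∃ a, sympForm m F u a = 0 ∧ sympForm m F w a ≠ 0 := by
    by_contra hcon
    push Not at hcon
    obtain ⟨c, hc⟩ := mem_span_of_perp hu hcon
    exact hw' c hc
  obtain ⟨z, hz, hvz, hwz⟩ : ∃ z, sympForm m F u z = 0 ∧ sympForm m F v z ≠ 0 ∧ sympForm m F w z ≠ 0 := by
    obtain ⟨a, ha, ha'⟩ := h1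
    obtain ⟨b, hb, hb'⟩ := h2
    by_cases h3 : sympForm m F w a = 0
    · by_cases h4 : sympForm m F v b = 0
      · refine ⟨a + b, ?_, ?_, ?_⟩
        · rw [sympForm_add_right, ha, hb, add_zero]
        · rwa [sympForm_add_right, h4, add_zero]
        · rwa [sympForm_add_right, h3, zero_add]
      · exact ⟨b, hb, h4, hb'⟩
    · exact ⟨a, ha, ha', h3⟩
  have hzw : sympForm m F z w ≠ 0 := by rw [sympForm_swap]; exact neg_ne_zero.2 hwz
  obtain ⟨A, hA, hA'⟩ := hstep v z hv hz hvz
  obtain ⟨B, hB, hB'⟩ := hstep z w hz hw hzw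
  refine ⟨B * A, ?_, ?_⟩
  · rw [map_mul, Equiv.Perm.mul_apply, hA, hB]
  · rw [map_mul, Equiv.Perm.mul_apply, hA', hB']

theorem exists_pair_move {a a' b b' : VV m F} (ha : a ≠ 0) (hb : b ≠ 0) (h1 : sympForm m F a a' = 0)
    (h2 : sympForm m F b b' = 0) (h3 : ∀ c : F, a' ≠ c • a) (h4 : ∀ c : F, b' ≠ c • b) :
    ∃ T : Matrix.symplecticGroup (Fin m) F, rho m F T a = b ∧ rho m F T a' = b' := by
  obtain ⟨A, -, hA⟩ := exists_transvGroup_mulVec_eq ha hb
  have hA' : rho m F A a = b := hA
  have h5 : sympForm m F b (rho m F A a') = 0 := by rw [← hA', sympForm_rho, h1]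
  have h6 : ∀ c : F, rho m F A a' ≠ c • b := by
    intro c hc
    apply h3 c
    apply (rho m F A).injective
    rw [hc, rho_smul, hA']
  obtain ⟨B, hB, hB'⟩ := fix_perp hb h5 h2 h6 h4
  refine ⟨B * A, ?_, ?_⟩
  · rw [map_mul, Equiv.Perm.mul_apply, hA', hB]
  · rw [map_mul, Equiv.Perm.mul_apply, hB']

/-! ### the unipotent radical -/

/-- the unipotent radical of the stabiliser of `W` -/
def RR (W : Submodule F (VV m F)) : Subgroup (Matrix.symplecticGroup (Fin m) F) where
  carrier := {S | (∀ y ∈ W, rho m F S y = y) ∧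
    ∀ x, (∀ y ∈ W, sympForm m F y x = 0) → rho m F S x - x ∈ W}
  one_mem' := by
    refine ⟨fun y _ => by rw [map_one]; rfl, fun x _ => ?_⟩
    have : rho m F 1 x = x := by rw [map_one]; rfl
    rw [this, sub_self]
    exact W.zero_mem
  mul_mem' := by
    rintro S T ⟨hS, hS'⟩ ⟨hT, hT'⟩
    refine ⟨fun y hy => by rw [map_mul, Equiv.Perm.mul_apply, hT y hy, hS y hy], fun x hx => ?_⟩
    rw [map_mul, Equiv.Perm.mul_apply]
    have h1 := hT' x hx
    have h2 : rho m F S (rho m F T x) = rho m F S x + (rho m F T x - x) := by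
      have h3 : rho m F T x = x + (rho m F T x - x) := by abel
      conv_lhs => rw [h3]
      rw [rho_add, hS _ h1]
    rw [h2]
    have h4 : rho m F S x + (rho m F T x - x) - x = (rho m F S x - x) + (rho m F T x - x) := by abel
    rw [h4]
    exact W.add_mem (hS' x hx) h1
  inv_mem' := by
    rintro S ⟨hS, hS'⟩
    have hS1 : ∀ y ∈ W, rho m F S⁻¹ y = y := by
      intro y hy
      rw [map_inv, Equiv.Perm.inv_eq_iff_eq]
      exact (hS y hy).symm
    refine ⟨hS1, fun x hx => ?_⟩
    have h1 := hS' x hx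
    have h2 := hS1 _ h1
    rw [rho_sub] at h2
    have h3 : rho m F S⁻¹ (rho m F S x) = x := by rw [map_inv]; exact perm_inv_apply_self _ _
    rw [h3] at h2
    have h4 : rho m F S⁻¹ x - x = -(x - rho m F S⁻¹ x) := by abel
    rw [h4, h2]
    exact W.neg_mem h1

theorem conj_mem_RR {W : Submodule F (VV m F)} {A S : Matrix.symplecticGroup (Fin m) F}
    (hA : ∀ y ∈ W, rho m F A y ∈ W) (hA' : ∀ y ∈ W, rho m F A⁻¹ y ∈ W) (hS : S ∈ RR W) : A * S * A⁻¹ ∈ RR W := by
  have hinv : ∀ y, rho m F A (rho m F A⁻¹ y) = y := fun y => by rw [map_inv]; exact perm_apply_inv_self _ _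
  refine ⟨fun y hy => ?_, fun x hx => ?_⟩
  · rw [map_mul, map_mul, Equiv.Perm.mul_apply, Equiv.Perm.mul_apply, hS.1 _ (hA' y hy), hinv]
  · rw [map_mul, map_mul, Equiv.Perm.mul_apply, Equiv.Perm.mul_apply]
    have h1 : ∀ y ∈ W, sympForm m F y (rho m F A⁻¹ x) = 0 := by
      intro y hy
      have h2 := sympForm_rho A y (rho m F A⁻¹ x)
      rw [hinv] at h2
      rw [← h2]
      exact hx _ (hA y hy)
    have h2 := hA _ (hS.2 _ h1)
    rwa [rho_sub, hinv] at h2

theorem mul_self_RR {W : Submodule F (VV m F)} (h2 : (2 : F) = 0) {S : Matrix.symplecticGroup (Fin m) F}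
    (hS : S ∈ RR W) : S ^ 4 = 1 := by
  have hch : ∀ x : VV m F, x + x = 0 := by
    intro x
    have : x + x = (2 : F) • x := by rw [two_smul]
    rw [this, h2, zero_smul]
  have h1 : ∀ x, ∃ w ∈ W, rho m F S (rho m F S x) = x + w := by
    intro x
    have h3 : ∀ y ∈ W, sympForm m F y (rho m F S x - x) = 0 := by
      intro y hy
      rw [sympForm_sub_right]
      have h4 := sympForm_rho S y x
      rw [hS.1 y hy] at h4
      rw [h4, sub_self]
    have h5 := hS.2 _ h3
    refine ⟨_, h5, ?_⟩
    rw [rho_sub]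
    have h6 : x + (rho m F S (rho m F S x) - rho m F S x - (rho m F S x - x)) =
        rho m F S (rho m F S x) + (x + x) - (rho m F S x + rho m F S x) := by abel
    rw [h6, hch, hch]
    abel
  apply rho_injective
  ext1 x
  rw [map_pow, map_one]
  show rho m F S (rho m F S (rho m F S (rho m F S x))) = x
  obtain ⟨w, hw, h3⟩ := h1 x
  rw [h3, rho_add, rho_add, hS.1 w hw, hS.1 w hw, h3, add_assoc, hch, add_zero]

variable [Fintype F]

theorem coprime_RR (h2 : (2 : F) = 0) (W : Submodule F (VV m F)) :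
    (Nat.card ((RR W).map (QuotientGroup.mk' (Subgroup.center (Matrix.symplecticGroup (Fin m) F))))).Coprime 3 := by
  have h1 : IsPGroup 2 (RR W) := by
    intro S
    refine ⟨2, ?_⟩
    apply Subtype.ext
    exact mul_self_RR h2 S.2
  have h3 := h1.map (QuotientGroup.mk' (Subgroup.center (Matrix.symplecticGroup (Fin m) F)))
  have : Finite (PSp m F) := finite_psp
  have : Fact (Nat.Prime 2) := ⟨Nat.prime_two⟩
  obtain ⟨k, hk⟩ := IsPGroup.iff_card.1 h3
  rw [hk]
  exact Nat.Coprime.pow_left _ (by norm_num)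

theorem conj_mem_RP {W : Submodule F (VV m F)} {A : Matrix.symplecticGroup (Fin m) F}
    (hA : ∀ y ∈ W, rho m F A y ∈ W) (hA' : ∀ y ∈ W, rho m F A⁻¹ y ∈ W) (x : PSp m F) :
    MulAut.conj (QuotientGroup.mk A : PSp m F) x ∈
      (RR W).map (QuotientGroup.mk' (Subgroup.center (Matrix.symplecticGroup (Fin m) F))) ↔
    x ∈ (RR W).map (QuotientGroup.mk' (Subgroup.center (Matrix.symplecticGroup (Fin m) F))) := by
  have key : ∀ A : Matrix.symplecticGroup (Fin m) F, (∀ y ∈ W, rho m F A y ∈ W) → (∀ y ∈ W, rho m F A⁻¹ y ∈ W) →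
      ∀ x ∈ (RR W).map (QuotientGroup.mk' (Subgroup.center (Matrix.symplecticGroup (Fin m) F))),
      MulAut.conj (QuotientGroup.mk A : PSp m F) x ∈
      (RR W).map (QuotientGroup.mk' (Subgroup.center (Matrix.symplecticGroup (Fin m) F))) := by
    rintro A hA hA' _ ⟨S, hS, rfl⟩
    exact ⟨A * S * A⁻¹, conj_mem_RR hA hA' hS, rfl⟩
  refine ⟨fun hx => ?_, key A hA hA' x⟩
  have h1 := key A⁻¹ hA' (by rwa [inv_inv]) _ hx
  rw [QuotientGroup.mk_inv, map_inv, MulAut.inv_apply_self] at h1
  exact h1

/-- **K1 for the radical** -/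
theorem kill (hm : 1 ≤ m) (h2 : (2 : F) = 0) {Γ : Subgroup (MulAut (PSp m F))} {C D : Set (MulAut (PSp m F))}
    (h : ACfg 3 Γ C D) {W : Submodule F (VV m F)} {w : VV m F} (hw : w ∈ W) (hw0 : w ≠ 0)
    {A B S : Matrix.symplecticGroup (Fin m) F} (hc : MulAut.conj (QuotientGroup.mk A : PSp m F) ∈ C)
    (hd : MulAut.conj (QuotientGroup.mk B : PSp m F) ∈ D) (hA : ∀ y ∈ W, rho m F A y ∈ W)
    (hA' : ∀ y ∈ W, rho m F A⁻¹ y ∈ W) (hB : ∀ y ∈ W, rho m F B y ∈ W) (hB' : ∀ y ∈ W, rho m F B⁻¹ y ∈ W)
    (hS : S ∈ RR W) : A * (S⁻¹ * (B * S * B⁻¹)) = (S⁻¹ * (B * S * B⁻¹)) * A := by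
  have := finite_psp (F := F) (m := m)
  have : Fact (Nat.Prime 3) := ⟨Nat.prime_three⟩
  have h1 := h.fix_comm (coprime_RR h2 W) hc hd (conj_mem_RP hA hA') (conj_mem_RP hB hB')
    (r := (QuotientGroup.mk S : PSp m F)) ⟨S, hS, rfl⟩
  have h3 : (QuotientGroup.mk (A * (S⁻¹ * (B * S * B⁻¹)) * A⁻¹) : PSp m F) =
      QuotientGroup.mk (S⁻¹ * (B * S * B⁻¹)) := h1
  have hT : S⁻¹ * (B * S * B⁻¹) ∈ RR W := (RR W).mul_mem ((RR W).inv_mem hS) (conj_mem_RR hB hB' hS)
  have h4 := eq_of_mk_of_fix hm hw0 ((conj_mem_RR hA hA' hT).1 w hw) (hT.1 w hw) h3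
  rw [mul_inv_eq_iff_eq_mul] at h4
  exact h4

/-! ### the field with two elements -/

theorem two_eq_zero (hF : Fintype.card F = 2) : (2 : F) = 0 := by
  have h1 := FiniteField.cast_card_eq_zero F
  rw [hF] at h1
  exact_mod_cast h1

theorem zero_or_one (hF : Fintype.card F = 2) (a : F) : a = 0 ∨ a = 1 := by
  by_contra hno
  push Not at hno
  classical
  have h1 : ({0, 1, a} : Finset F).card ≤ Fintype.card F := Finset.card_le_univ _
  rw [Finset.card_eq_three.2 ⟨0, 1, a, zero_ne_one, hno.1.symm, hno.2.symm, rfl⟩, hF] at h1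
  omega

theorem add_self (h2 : (2 : F) = 0) (x : VV m F) : x + x = 0 := by
  have : x + x = (2 : F) • x := by rw [two_smul]
  rw [this, h2, zero_smul]

theorem neg_self (h2 : (2 : F) = 0) (x : VV m F) : - x = x := by
  rw [neg_eq_iff_add_eq_zero]
  exact add_self h2 x

theorem neg_selfF (h2 : (2 : F) = 0) (x : F) : - x = x := by
  rw [neg_eq_iff_add_eq_zero, ← two_mul, h2, zero_mul]

/-- the two types of elements of order three -/
theorem type_cases (hF : Fintype.card F = 2) {A : Matrix.symplecticGroup (Fin m) F} (hA : orderOf A = 3) :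
    (∃ a, a ≠ 0 ∧ rho m F A (rho m F A a) = a + rho m F A a ∧ sympForm m F a (rho m F A a) = 0) ∨
      ∃ a, rho m F A (rho m F A a) = a + rho m F A a ∧ sympForm m F a (rho m F A a) = 1 ∧
        ∀ x, sympForm m F a x = 0 → sympForm m F (rho m F A a) x = 0 → rho m F A x = x := by
  have h2 := two_eq_zero hF
  by_cases hex : ∃ a, a ≠ 0 ∧ rho m F A (rho m F A a) = a + rho m F A a ∧ sympForm m F a (rho m F A a) = 0
  · exact Or.inl hex
  push Not at hex
  right
  have hV1 : ∀ u, rho m F A (rho m F A (rho m F A u - u)) = (rho m F A u - u) + rho m F A (rho m F A u - u) := by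
    intro u
    rw [mem_V1 hA, sub_eq_add_neg, neg_self h2, neg_self h2]
  have h3 : (3 : F) = 1 := by
    have : (3 : F) = 2 + 1 := by norm_num
    rw [this, h2, zero_add]
  obtain ⟨u, hu⟩ := exists_form_ne hA
  have hu1 : sympForm m F u (rho m F A u) = 1 := (zero_or_one hF _).resolve_left hu
  refine ⟨rho m F A u - u, hV1 u, by rw [form_V1 hA, hu1, h3, one_mul], fun x hx hx' => ?_⟩
  set v := rho m F A u - u with hv
  have hvv : sympForm m F v (rho m F A v) = 1 := by rw [form_V1 hA, hu1, h3, one_mul]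
  by_contra hne
  set b := rho m F A x - x with hb
  have hb0 : b ≠ 0 := sub_ne_zero.2 hne
  -- `b` is orthogonal to `v` and `A v`
  have e1 : sympForm m F v (rho m F A x) = 0 := by
    have h4 := sympForm_rho A (rho m F A (rho m F A v)) x
    rw [pow_three hA] at h4
    rw [h4, hV1 u, ← hv, sympForm_add_left, hx, hx', add_zero]
  have e2 : sympForm m F (rho m F A v) (rho m F A x) = 0 := by rw [sympForm_rho, hx]
  have hvb : sympForm m F v b = 0 := by rw [hb, sympForm_sub_right, e1, hx, sub_zero]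
  have hvb' : sympForm m F (rho m F A v) b = 0 := by rw [hb, sympForm_sub_right, e2, hx', sub_zero]
  have hvb2 : sympForm m F v (rho m F A b) = 0 := by
    have h4 := sympForm_rho A (rho m F A (rho m F A v)) b
    rw [pow_three hA] at h4
    rw [h4, hV1 u, ← hv, sympForm_add_left, hvb, hvb', add_zero]
  have hbv : sympForm m F b (rho m F A v) = 0 := by rw [sympForm_swap, hvb', neg_zero]
  have hbb : sympForm m F b (rho m F A b) = 1 := (zero_or_one hF _).resolve_left (hex b hb0 (hV1 x))
  have hsum : sympForm m F (v + b) (rho m F A (v + b)) = 0 := by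
    rw [rho_add, sympForm_add_left, sympForm_add_right, sympForm_add_right, hvv, hvb2, hbv, hbb, add_zero, zero_add]
    have : (1 : F) + 1 = 2 := by norm_num
    rw [this, h2]
  refine hex (v + b) ?_ ?_ hsum
  · intro h0
    have h4 : sympForm m F (v + b) (rho m F A v) = 0 := by rw [h0, sympForm_zero_left]
    rw [sympForm_add_left, hvv, hbv, add_zero] at h4
    exact one_ne_zero h4
  · rw [rho_add, rho_add, hV1 u, hV1 x, ← hv, ← hb]
    abel

theorem not_smul {A : Matrix.symplecticGroup (Fin m) F} (hF : Fintype.card F = 2) {a : VV m F} (ha : a ≠ 0)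
    (hAa : rho m F A (rho m F A a) = a + rho m F A a) (c : F) : rho m F A a ≠ c • a := by
  intro h
  have h2 := two_eq_zero hF
  rcases zero_or_one hF c with rfl | rfl
  · rw [zero_smul] at h
    have h0 : rho m F A (0 : VV m F) = 0 := by
      have := rho_smul A 0 (0 : VV m F)
      rwa [zero_smul, zero_smul] at this
    rw [h, h0, add_zero] at hAa
    exact ha hAa.symm
  · rw [one_smul] at h
    rw [h, h, add_self h2] at hAa
    exact ha hAa

section inv

variable {w w' : VV m F} {A : Matrix.symplecticGroup (Fin m) F}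

theorem inv_left (h2 : (2 : F) = 0) (h : rho m F A w = w') (h' : rho m F A w' = w + w') :
    rho m F A⁻¹ w = w + w' := by
  rw [map_inv, Equiv.Perm.inv_eq_iff_eq, rho_add, h, h', add_comm w w', ← add_assoc, add_self h2, zero_add]

theorem inv_right (h : rho m F A w = w') : rho m F A⁻¹ w' = w := by
  rw [map_inv, Equiv.Perm.inv_eq_iff_eq, h]

theorem span_inv (h2 : (2 : F) = 0) (h : rho m F A w = w') (h' : rho m F A w' = w + w') :
    (∀ y ∈ Submodule.span F {w, w'}, rho m F A y ∈ Submodule.span F {w, w'}) ∧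
      ∀ y ∈ Submodule.span F {w, w'}, rho m F A⁻¹ y ∈ Submodule.span F {w, w'} := by
  have hw : w ∈ Submodule.span F {w, w'} := Submodule.subset_span (by simp)
  have hw' : w' ∈ Submodule.span F {w, w'} := Submodule.subset_span (by simp)
  constructor
  · intro y hy
    obtain ⟨a, b, rfl⟩ := Submodule.mem_span_pair.1 hy
    rw [rho_add, rho_smul, rho_smul, h, h']
    exact Submodule.add_mem _ (Submodule.smul_mem _ _ hw') (Submodule.smul_mem _ _ (Submodule.add_mem _ hw hw'))
  · intro y hy
    obtain ⟨a, b, rfl⟩ := Submodule.mem_span_pair.1 hy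
    rw [rho_add, rho_smul, rho_smul, inv_left h2 h h', inv_right h]
    exact Submodule.add_mem _ (Submodule.smul_mem _ _ (Submodule.add_mem _ hw hw')) (Submodule.smul_mem _ _ hw)

end inv

theorem conj_transv (A : Matrix.symplecticGroup (Fin m) F) (v : VV m F) (c : F) :
    A * transv v c * A⁻¹ = transv (rho m F A v) c := by
  apply rho_injective
  ext1 x
  rw [map_mul, map_mul, Equiv.Perm.mul_apply, Equiv.Perm.mul_apply, rho_transv, rho_transv, rho_add, rho_smul]
  have h1 : rho m F A (rho m F A⁻¹ x) = x := by rw [map_inv]; exact perm_apply_inv_self _ _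
  rw [h1]
  have h2 := sympForm_rho A (rho m F A⁻¹ x) v
  rw [h1] at h2
  rw [h2]

theorem transv_inv (v : VV m F) (c : F) : (transv v c)⁻¹ = transv v (-c) := by
  rw [inv_eq_iff_mul_eq_one]
  apply rho_injective
  ext1 z
  rw [map_mul, map_one, Equiv.Perm.mul_apply, rho_transv, rho_transv, sympForm_add_left, sympForm_smul_left,
    sympForm_self]
  show z + _ + _ = z
  rw [add_assoc, ← add_smul]
  have : (-c * sympForm m F z v + c * (sympForm m F z v + -c * sympForm m F z v * 0)) = 0 := by ring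
  rw [this, zero_smul, add_zero]

variable {Γ : Subgroup (MulAut (PSp m F))} {C D : Set (MulAut (PSp m F))}

/-- both elements act in the same way on a totally isotropic plane -/
theorem false_of_same (hm : 1 ≤ m) (hF : Fintype.card F = 2) (h : ACfg 3 Γ C D)
    {A B : Matrix.symplecticGroup (Fin m) F} (hc : MulAut.conj (QuotientGroup.mk A : PSp m F) ∈ C)
    (hd : MulAut.conj (QuotientGroup.mk B : PSp m F) ∈ D) {w w' : VV m F} (hw0 : w ≠ 0) (hww : sympForm m F w w' = 0)
    (hns : ∀ c : F, w' ≠ c • w)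
    (hA : rho m F A w = w') (hA' : rho m F A w' = w + w') (hB : rho m F B w = w') (hB' : rho m F B w' = w + w') :
    False := by
  have h2 := two_eq_zero hF
  have hw : w ∈ Submodule.span F {w, w'} := Submodule.subset_span (by simp)
  have hperp : ∀ y ∈ Submodule.span F {w, w'}, sympForm m F y w = 0 := by
    intro y hy
    obtain ⟨a, b, rfl⟩ := Submodule.mem_span_pair.1 hy
    rw [sympForm_add_left, sympForm_smul_left, sympForm_smul_left, sympForm_self, sympForm_swap w', hww]
    simp
  have hS : transv w 1 ∈ RR (Submodule.span F {w, w'}) := by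
    refine ⟨fun y hy => fix_transv _ (hperp y hy), fun x hx => ?_⟩
    rw [fix_transv _ (by rw [sympForm_swap, hx w hw, neg_zero]), sub_self]
    exact Submodule.zero_mem _
  have hk := kill hm h2 h hw hw0 hc hd (span_inv h2 hA hA').1 (span_inv h2 hA hA').2 (span_inv h2 hB hB').1
    (span_inv h2 hB hB').2 hS
  rw [conj_transv, hB, transv_inv] at hk
  obtain ⟨x, -, hx, hx'⟩ := exists_dual (Cfsg.Agent.H951.nd_symp (F := F) m) Submodule.mem_top Submodule.mem_top hns
    hw0
  have h3 := DFunLike.congr_fun (congrArg (rho m F) hk) x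
  simp only [map_mul, Equiv.Perm.mul_apply, rho_transv] at h3
  have e1 : sympForm m F (rho m F A x) w' = 1 := by rw [← hA, sympForm_rho, hx]
  have e2 : sympForm m F (rho m F A x) w = 1 := by
    have h4 := sympForm_rho A x (w + w')
    rw [rho_add, hA, hA', add_comm w w', ← add_assoc, add_self h2, zero_add, sympForm_add_right, hx, hx', zero_add] at h4
    exact h4
  have hw'w : sympForm m F w' w = 0 := by rw [sympForm_swap, hww, neg_zero]
  simp only [sympForm_add_left, hx, hx', e1, e2, rho_add, rho_smul, hA, hw'w, mul_zero, mul_one,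
    add_zero, zero_smul, one_smul] at h3
  apply hw0
  have h4 : w = w' + w' + (rho m F A x + (-1 : F) • w' - (rho m F A x + w' + (-1 : F) • w)) := by module
  rw [h4, h3, sub_self, add_zero, add_self h2]

/-- one element fixes a totally isotropic plane on which the other one is not trivial -/
theorem false_of_fix (hm : 1 ≤ m) (hF : Fintype.card F = 2) (h : ACfg 3 Γ C D)
    {A B : Matrix.symplecticGroup (Fin m) F} (hc : MulAut.conj (QuotientGroup.mk A : PSp m F) ∈ C)
    (hd : MulAut.conj (QuotientGroup.mk B : PSp m F) ∈ D) {w w' : VV m F} (hw0 : w ≠ 0) (hww : sympForm m F w w' = 0)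
    (hns : ∀ c : F, w' ≠ c • w)
    (hA : rho m F A w = w') (hA' : rho m F A w' = w + w') (hB : rho m F B w = w) (hB' : rho m F B w' = w')
    {u : VV m F} (hu : sympForm m F w u = 0) (hu' : sympForm m F w' u = 0) (huB : sympForm m F u (rho m F B u) = 1) :
    False := by
  have h2 := two_eq_zero hF
  have hw : w ∈ Submodule.span F {w, w'} := Submodule.subset_span (by simp)
  have hw' : w' ∈ Submodule.span F {w, w'} := Submodule.subset_span (by simp)
  have hw'w : sympForm m F w' w = 0 := by rw [sympForm_swap, hww, neg_zero]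
  have huw : sympForm m F u w = 0 := by rw [sympForm_swap, hu, neg_zero]
  have hBi : rho m F B⁻¹ w = w := by rw [map_inv, Equiv.Perm.inv_eq_iff_eq, hB]
  have hBi' : rho m F B⁻¹ w' = w' := by rw [map_inv, Equiv.Perm.inv_eq_iff_eq, hB']
  have hperp : ∀ y ∈ Submodule.span F {w, w'}, sympForm m F y w = 0 ∧ sympForm m F y u = 0 := by
    intro y hy
    obtain ⟨a, b, rfl⟩ := Submodule.mem_span_pair.1 hy
    rw [sympForm_add_left, sympForm_smul_left, sympForm_smul_left, sympForm_self, hw'w, sympForm_add_left,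
      sympForm_smul_left, sympForm_smul_left, hu, hu']
    simp
  -- the element of the radical
  obtain ⟨S, hSdef⟩ : ∃ S : Matrix.symplecticGroup (Fin m) F, S = transv (w + u) 1 * (transv w 1 * transv u 1) :=
    ⟨_, rfl⟩
  have hSx : ∀ x, rho m F S x = x + sympForm m F x w • u + sympForm m F x u • w := by
    intro x
    rw [hSdef, map_mul, map_mul, Equiv.Perm.mul_apply, Equiv.Perm.mul_apply, rho_transv, rho_transv, rho_transv]
    simp only [sympForm_add_left, sympForm_add_right, sympForm_smul_left, sympForm_self, hu, huw, one_mul, mul_zero,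
      add_zero, smul_add]
    have h5 := add_self h2 (sympForm m F x u • u)
    have h6 := add_self h2 (sympForm m F x w • w)
    have e : x + sympForm m F x u • u + sympForm m F x w • w + ((sympForm m F x w + sympForm m F x u) • w +
        (sympForm m F x w + sympForm m F x u) • u) = x + sympForm m F x w • u + sympForm m F x u • w +
        (sympForm m F x u • u + sympForm m F x u • u) + (sympForm m F x w • w + sympForm m F x w • w) := by module
    rw [e, h5, h6, add_zero, add_zero]
  have hS : S ∈ RR (Submodule.span F {w, w'}) := by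
    refine ⟨fun y hy => ?_, fun x hx => ?_⟩
    · rw [hSx, (hperp y hy).1, (hperp y hy).2, zero_smul, zero_smul, add_zero, add_zero]
    · have h3 : sympForm m F x w = 0 := by rw [sympForm_swap, hx w hw, neg_zero]
      rw [hSx, h3, zero_smul, add_zero, add_sub_cancel_left]
      exact Submodule.smul_mem _ _ hw
  have hBspan : (∀ y ∈ Submodule.span F {w, w'}, rho m F B y ∈ Submodule.span F {w, w'}) ∧
      ∀ y ∈ Submodule.span F {w, w'}, rho m F B⁻¹ y ∈ Submodule.span F {w, w'} := by
    constructor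
    · intro y hy
      obtain ⟨a, b, rfl⟩ := Submodule.mem_span_pair.1 hy
      rw [rho_add, rho_smul, rho_smul, hB, hB']
      exact hy
    · intro y hy
      obtain ⟨a, b, rfl⟩ := Submodule.mem_span_pair.1 hy
      rw [rho_add, rho_smul, rho_smul, hBi, hBi']
      exact hy
  have hk := kill hm h2 h hw hw0 hc hd (span_inv h2 hA hA').1 (span_inv h2 hA hA').2 hBspan.1 hBspan.2 hS
  -- `P = S⁻¹ (B S B⁻¹)` maps `x` to `x + (x,w) (u + B u)` modulo `w`
  have hSS : S⁻¹ = S := by
    rw [inv_eq_iff_mul_eq_one]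
    apply rho_injective
    ext1 x
    rw [map_mul, Equiv.Perm.mul_apply, hSx, hSx x]
    simp only [sympForm_add_left, sympForm_smul_left, sympForm_self, hu, huw, mul_zero, add_zero]
    have e : x + sympForm m F x w • u + sympForm m F x u • w + sympForm m F x w • u + sympForm m F x u • w =
        x + (sympForm m F x w • u + sympForm m F x w • u) + (sympForm m F x u • w + sympForm m F x u • w) := by module
    rw [e, add_self h2, add_self h2, add_zero, add_zero, map_one]
    rfl
  have hBS : ∀ x, rho m F (B * S * B⁻¹) x = x + sympForm m F x w • rho m F B u + sympForm m F x (rho m F B u) • w := by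
    intro x
    have h5 : rho m F B (rho m F B⁻¹ x) = x := by rw [map_inv]; exact perm_apply_inv_self _ _
    have h6 := sympForm_rho B (rho m F B⁻¹ x) w
    have h7 := sympForm_rho B (rho m F B⁻¹ x) u
    rw [h5] at h6 h7
    rw [hB] at h6
    rw [map_mul, map_mul, Equiv.Perm.mul_apply, Equiv.Perm.mul_apply, hSx, rho_add, rho_add, h5, rho_smul, rho_smul,
      hB, ← h6, ← h7]
  have hBuw : sympForm m F (rho m F B u) w = 0 := by
    have h6 := sympForm_rho B u w
    rw [hB] at h6
    rw [h6, huw]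
  have hPx : ∀ x, ∃ c : F, rho m F (S⁻¹ * (B * S * B⁻¹)) x = x + sympForm m F x w • (u + rho m F B u) + c • w := by
    intro x
    refine ⟨sympForm m F x u + sympForm m F x w * sympForm m F (rho m F B u) u + sympForm m F x (rho m F B u), ?_⟩
    rw [hSS, map_mul, Equiv.Perm.mul_apply, hBS, hSx]
    simp only [sympForm_add_left, sympForm_smul_left, sympForm_self, hBuw, hu, mul_zero, add_zero]
    module
  obtain ⟨x, -, hx, hx'⟩ := exists_dual (u := w') (v := w) (Cfsg.Agent.H951.nd_symp (F := F) m) Submodule.mem_top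
    Submodule.mem_top (by
      intro c hc
      rcases zero_or_one hF c with rfl | rfl
      · rw [zero_smul] at hc
        exact hw0 hc
      · exact hns 1 (by rw [one_smul] at hc ⊢; exact hc.symm)) (by
      rintro rfl
      exact hns 0 (by rw [zero_smul]))
  have h3 := DFunLike.congr_fun (congrArg (rho m F) hk) x
  rw [map_mul, map_mul (rho m F) (S⁻¹ * (B * S * B⁻¹)) A, Equiv.Perm.mul_apply, Equiv.Perm.mul_apply] at h3
  obtain ⟨c, hc'⟩ := hPx x
  obtain ⟨c', hc''⟩ := hPx (rho m F A x)
  have e2 : sympForm m F (rho m F A x) w = 1 := by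
    have h4 := sympForm_rho A x (w + w')
    rw [rho_add, hA, hA', add_comm w w', ← add_assoc, add_self h2, zero_add, sympForm_add_right, hx, hx', add_zero] at h4
    exact h4
  rw [hc', hc'', hx', e2, zero_smul, add_zero, rho_add, rho_smul, hA, one_smul] at h3
  have h4 : u + rho m F B u = c • w' + (-c') • w := by
    have e : u + rho m F B u = (rho m F A x + (u + rho m F B u) + c' • w) - rho m F A x - c' • w := by module
    rw [e, ← h3]
    module
  have h5 := congrArg (fun z => sympForm m F u z) h4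
  simp only [sympForm_add_right, sympForm_smul_right, sympForm_self, huB, huw, zero_add, mul_zero, add_zero] at h5
  rw [sympForm_swap, hu', neg_zero, mul_zero] at h5
  exact one_ne_zero h5

/-- conjugates -/
theorem conj_mem (h : ACfg 3 Γ C D) {A : Matrix.symplecticGroup (Fin m) F}
    (hc : MulAut.conj (QuotientGroup.mk A : PSp m F) ∈ C) (T : Matrix.symplecticGroup (Fin m) F) :
    MulAut.conj (QuotientGroup.mk (T * A * T⁻¹) : PSp m F) ∈ C := by
  have h1 := h.conjC (MulAut.conj (QuotientGroup.mk T : PSp m F)) (h.inn ⟨_, rfl⟩) _ hc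
  rw [← map_mul, ← map_inv, ← map_mul] at h1
  exact h1

theorem rho_conj_apply {A T : Matrix.symplecticGroup (Fin m) F} {x y z : VV m F} (h1 : rho m F T x = y)
    (h2 : rho m F T (rho m F A x) = z) : rho m F (T * A * T⁻¹) y = z := by
  rw [map_mul, map_mul, Equiv.Perm.mul_apply, Equiv.Perm.mul_apply, inv_right h1, h2]

/-- the first type: a totally isotropic invariant plane without fixed vectors -/
def T2 (A : Matrix.symplecticGroup (Fin m) F) : Prop :=
  ∃ a, a ≠ 0 ∧ rho m F A (rho m F A a) = a + rho m F A a ∧ sympForm m F a (rho m F A a) = 0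

/-- the second type: one block -/
def T1 (A : Matrix.symplecticGroup (Fin m) F) : Prop :=
  ∃ a, rho m F A (rho m F A a) = a + rho m F A a ∧ sympForm m F a (rho m F A a) = 1 ∧
    ∀ x, sympForm m F a x = 0 → sympForm m F (rho m F A a) x = 0 → rho m F A x = x

theorem false22 (hm : 1 ≤ m) (hF : Fintype.card F = 2) (h : ACfg 3 Γ C D)
    {A B : Matrix.symplecticGroup (Fin m) F} (hc : MulAut.conj (QuotientGroup.mk A : PSp m F) ∈ C)
    (hd : MulAut.conj (QuotientGroup.mk B : PSp m F) ∈ D) (hA : T2 A) (hB : T2 B) : False := by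
  obtain ⟨a, ha, haa, hab⟩ := hA
  obtain ⟨b, hb, hbb, hba⟩ := hB
  obtain ⟨T, hT, hT'⟩ := exists_pair_move hb ha hba hab (not_smul hF hb hbb) (not_smul hF ha haa)
  exact false_of_same hm hF h hc (conj_mem h.symm hd T) ha hab (not_smul hF ha haa) rfl haa
    (rho_conj_apply hT hT') (rho_conj_apply hT' (by rw [hbb, rho_add, hT, hT']))

theorem false21 (hm : 3 ≤ m) (hF : Fintype.card F = 2) (h : ACfg 3 Γ C D)
    {A B : Matrix.symplecticGroup (Fin m) F} (hc : MulAut.conj (QuotientGroup.mk A : PSp m F) ∈ C)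
    (hd : MulAut.conj (QuotientGroup.mk B : PSp m F) ∈ D) (hA : T2 A) (hB : T1 B) : False := by
  obtain ⟨a, ha, haa, hab⟩ := hA
  obtain ⟨b, hbb, hb1, hfix⟩ := hB
  set i0 : Fin m := ⟨0, by omega⟩ with hi0
  set i1 : Fin m := ⟨1, by omega⟩ with hi1
  set i2 : Fin m := ⟨2, by omega⟩ with hi2
  have h01 : i0 ≠ i1 := by
    intro h
    have := congrArg Fin.val h
    simp [hi0, hi1] at this
  have h02 : i0 ≠ i2 := by
    intro h
    have := congrArg Fin.val h
    simp [hi0, hi2] at this
  have h12 : i1 ≠ i2 := by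
    intro h
    have := congrArg Fin.val h
    simp [hi1, hi2] at this
  obtain ⟨T, -, hT1, hT2⟩ := exists_transvGroup_hyperbolic (ee_ff (F := F) i0) hb1
  have hT1' : rho m F T (ee i0) = b := hT1
  have hT2' : rho m F T (ff i0) = rho m F B b := hT2
  set w := rho m F T (ee i1) with hw
  set w' := rho m F T (ee i2) with hw'
  have hww : sympForm m F w w' = 0 := by rw [hw, hw', sympForm_rho, ee_ee]
  have hbw : sympForm m F b w = 0 := by rw [← hT1', hw, sympForm_rho, ee_ee]
  have hbw' : sympForm m F b w' = 0 := by rw [← hT1', hw', sympForm_rho, ee_ee]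
  have hw0 : w ≠ 0 := by
    intro h0
    have h5 := sympForm_rho T (ee i1) (ff i1)
    rw [← hw, h0, sympForm_zero_left, ee_ff] at h5
    exact zero_ne_one h5
  have hns : ∀ c : F, w' ≠ c • w := by
    intro c hc'
    have h5 := sympForm_rho T (ee i2) (ff i2)
    have h6 := sympForm_rho T (ee i1) (ff i2)
    rw [← hw', hc', sympForm_smul_left, ee_ff] at h5
    rw [← hw, ee_ff_ne h12] at h6
    rw [h6, mul_zero] at h5
    exact zero_ne_one h5
  have hBw : rho m F B w = w := hfix w hbw (by rw [← hT2', hw, sympForm_rho, ff_ee_ne h01])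
  have hBw' : rho m F B w' = w' := hfix w' hbw' (by rw [← hT2', hw', sympForm_rho, ff_ee_ne h02])
  obtain ⟨U, hU, hU'⟩ := exists_pair_move ha hw0 hab hww (not_smul hF ha haa) hns
  exact false_of_fix (by omega) hF h (conj_mem h hc U) hd hw0 hww hns (rho_conj_apply hU hU')
    (rho_conj_apply hU' (by rw [haa, rho_add, hU, hU'])) hBw hBw'
    (by rw [sympForm_swap, hbw, neg_zero]) (by rw [sympForm_swap, hbw', neg_zero]) hb1

theorem false11 (h : ACfg 3 Γ C D)
    {A B : Matrix.symplecticGroup (Fin m) F} (hc : MulAut.conj (QuotientGroup.mk A : PSp m F) ∈ C)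
    (hd : MulAut.conj (QuotientGroup.mk B : PSp m F) ∈ D) (hA : T1 A) (hB : T1 B) : False := by
  obtain ⟨a, haa, ha1, hafix⟩ := hA
  obtain ⟨b, hbb, hb1, hbfix⟩ := hB
  obtain ⟨T, -, hT1, hT2⟩ := exists_transvGroup_hyperbolic hb1 ha1
  have hT1' : rho m F T b = a := hT1
  have hT2' : rho m F T (rho m F B b) = rho m F A a := hT2
  have hAB : T * B * T⁻¹ = A := by
    apply rho_injective
    ext1 x
    have h1 : rho m F (T * B * T⁻¹) a = rho m F A a := rho_conj_apply hT1' hT2'
    have h2 : rho m F (T * B * T⁻¹) (rho m F A a) = rho m F A (rho m F A a) :=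
      rho_conj_apply hT2' (by rw [hbb, rho_add, hT1', hT2', haa])
    have h3 : ∀ x, sympForm m F a x = 0 → sympForm m F (rho m F A a) x = 0 → rho m F (T * B * T⁻¹) x = x := by
      intro x hx hx'
      have h5 : rho m F T (rho m F T⁻¹ x) = x := by rw [map_inv]; exact perm_apply_inv_self _ _
      rw [map_mul, map_mul, Equiv.Perm.mul_apply, Equiv.Perm.mul_apply, hbfix, h5]
      · have h6 := sympForm_rho T b (rho m F T⁻¹ x)
        rw [h5, hT1', hx] at h6
        exact h6.symm
      · have h6 := sympForm_rho T (rho m F B b) (rho m F T⁻¹ x)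
        rw [h5, hT2', hx'] at h6
        exact h6.symm
    have hd := decomp ha1 x
    have h4 : x = (x - sympForm m F x (rho m F A a) • a - sympForm m F a x • rho m F A a) +
        (sympForm m F x (rho m F A a) • a + sympForm m F a x • rho m F A a) := by module
    rw [h4, rho_add, rho_add, rho_add, rho_add, h3 _ hd.1 hd.2, hafix _ hd.1 hd.2, rho_smul, rho_smul, rho_smul, rho_smul,
      h1, h2]
  have := finite_psp (F := F) (m := m)
  have : Fact (Nat.Prime 3) := ⟨Nat.prime_three⟩
  refine h.false_of_isConj hc hd (i := 1) (j := 1) (g := MulAut.conj (QuotientGroup.mk T : PSp m F)) (h.inn ⟨_, rfl⟩) ?_ ?_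
  · rw [pow_one, pow_one, ← map_mul, ← map_inv, ← map_mul, ← hAB]
    rfl
  · rw [pow_one]
    intro h1
    have h2 := h.ordC _ hc
    rw [h1, orderOf_one] at h2
    omega

/-- **`q = 2`** -/
theorem arow_two (hm : 3 ≤ m) (hF : Fintype.card F = 2) : ARow 3 (PSp m F) := by
  intro Γ C D h
  have key : ∀ {C D : Set (MulAut (PSp m F))}, ACfg 3 Γ C D → ∃ A : Matrix.symplecticGroup (Fin m) F,
      MulAut.conj (QuotientGroup.mk A : PSp m F) ∈ C ∧ (T2 A ∨ T1 A) := by
    intro C D h
    obtain ⟨c, hc⟩ := h.neC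
    rcases split_aut (by omega) (fun _ => by omega) Nat.prime_three (by norm_num) (h.ordC c hc) with
      ⟨A, hA, rfl⟩ | ⟨φ, hφ, -⟩
    · exact ⟨A, hc, type_cases hF hA⟩
    · exfalso
      have h1 : φ = 1 := by
        apply RingEquiv.ext
        intro a
        rcases zero_or_one hF a with rfl | rfl
        · rw [map_zero, map_zero]
        · rw [map_one, map_one]
      rw [h1, orderOf_one] at hφ
      omega
  obtain ⟨A, hc, hA⟩ := key h
  obtain ⟨B, hd, hB⟩ := key h.symm
  rcases hA with hA | hA <;> rcases hB with hB | hB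
  · exact false22 (by omega) hF h hc hd hA hB
  · exact false21 hm hF h hc hd hA hB
  · exact false21 hm hF h.symm hd hc hB hA
  · exact false11 h hc hd hA hB

/-- **The row `PSp_2m(q)`, `3 ∤ q`, of S3826.** -/
theorem arow_psp (hm : 2 ≤ m) (h22 : m = 2 → 3 ≤ Fintype.card F) (h3 : (3 : F) ≠ 0) : ARow 3 (PSp m F) := by
  have h1 : 1 < Fintype.card F := Fintype.one_lt_card
  by_cases h4 : 4 ≤ Fintype.card F
  · exact arow_of_four hm h3 h4
  · have h5 : Fintype.card F ≠ 3 := by
      intro h6
      have h7 := FiniteField.cast_card_eq_zero F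
      rw [h6] at h7
      exact h3 (by exact_mod_cast h7)
    have h6 : Fintype.card F = 2 := by omega
    refine arow_two ?_ h6
    by_contra h7
    have := h22 (by omega)
    omega

end Cfsg.Agent.H774.Wf.Psp
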